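import Mathlib
import Cfsg.Agent.Lib.Helper1.CharComplete

set_option autoImplicit false

namespace Cfsg.Agent.Lib.Helper6

universe u

/-- Egyptian-fraction bound: a multiset of `k` positive integers whose reciprocals sum to a
positive multiple of `1 / D` has all its entries bounded in terms of `k` and `D`. -/
theorem landau_aux (k : ℕ) : ∀ D : ℕ, 0 < D → ∃ N : ℕ, ∀ s : Multiset ℕ, s.card = k →
    (∀ n ∈ s, 0 < n) →
    (∃ c : ℕ, 0 < c ∧ (s.map (fun n : ℕ => (1 : ℚ) / n)).sum = (c : ℚ) / D) →
    ∀ n ∈ s, n ≤ N := by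
  induction k with
  | zero =>
    intro D _
    refine ⟨0, ?_⟩
    intro s hs _ _ n hn
    rw [Multiset.card_eq_zero.mp hs] at hn
    exact absurd hn (Multiset.notMem_zero n)
  | succ k ih =>
    intro D hD
    choose! F hF using ih
    refine ⟨max ((k + 1) * D) ((Finset.range ((k + 1) * D + 1)).sup (fun m => F (D * m))), ?_⟩
    intro s hs hpos ⟨c, hc, hsum⟩ n hn
    have hDq : (0 : ℚ) < D := by exact_mod_cast hD
    -- some element is at most (k+1) D
    have hex : ∃ m ∈ s, m ≤ (k + 1) * D := by
      by_contra hcon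
      push_neg at hcon
      have hle : (s.map (fun n : ℕ => (1 : ℚ) / n)).sum
          ≤ (s.map (fun n : ℕ => (1 : ℚ) / n)).card • ((1 : ℚ) / ((k + 1) * D + 1 : ℕ)) := by
        apply Multiset.sum_le_card_nsmul
        intro x hx
        obtain ⟨m, hm, rfl⟩ := Multiset.mem_map.mp hx
        have h1 := hcon m hm
        have h2 : (((k + 1) * D + 1 : ℕ) : ℚ) ≤ (m : ℚ) := by exact_mod_cast h1
        apply one_div_le_one_div_of_le _ h2
        positivity
      rw [Multiset.card_map, hs, hsum, nsmul_eq_mul] at hle
      have hc1 : (1 : ℚ) ≤ c := by exact_mod_cast hc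
      have h3 : (1 : ℚ) / D ≤ (c : ℚ) / D := by
        apply div_le_div_of_nonneg_right hc1 hDq.le
      have h4 : ((k + 1 : ℕ) : ℚ) * ((1 : ℚ) / ((k + 1) * D + 1 : ℕ)) < 1 / D := by
        rw [mul_one_div, div_lt_div_iff₀ (by positivity) hDq]
        push_cast
        nlinarith
      linarith
    obtain ⟨m, hm, hmle⟩ := hex
    obtain ⟨s', rfl⟩ := Multiset.exists_cons_of_mem hm
    have hmpos : 0 < m := hpos m hm
    have hmq : (0 : ℚ) < m := by exact_mod_cast hmpos
    rcases Multiset.mem_cons.mp hn with rfl | hn'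
    · exact le_trans hmle (le_max_left _ _)
    · apply le_trans _ (le_max_right _ _)
      have hcard : s'.card = k := by
        rw [Multiset.card_cons] at hs
        omega
      rw [Multiset.map_cons, Multiset.sum_cons] at hsum
      have hs'sum : (s'.map (fun n : ℕ => (1 : ℚ) / n)).sum = (c : ℚ) / D - 1 / m := by
        linarith
      have hs'pos : 0 < (s'.map (fun n : ℕ => (1 : ℚ) / n)).sum := by
        obtain ⟨t, rfl⟩ := Multiset.exists_cons_of_mem hn'
        rw [Multiset.map_cons, Multiset.sum_cons]
        have hnq : (0 : ℚ) < n := by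
          exact_mod_cast hpos n (Multiset.mem_cons_of_mem (Multiset.mem_cons_self n t))
        have h1 : (0 : ℚ) < 1 / n := by positivity
        have h2 : (0 : ℚ) ≤ (t.map (fun n : ℕ => (1 : ℚ) / n)).sum := by
          apply Multiset.sum_nonneg
          intro x hx
          obtain ⟨j, _, rfl⟩ := Multiset.mem_map.mp hx
          positivity
        linarith
      have hcm : D < c * m := by
        rw [hs'sum] at hs'pos
        have h1 : (1 : ℚ) / m < c / D := by linarith
        rw [div_lt_div_iff₀ hmq hDq] at h1
        have h2 : (D : ℚ) < (c : ℚ) * m := by linarith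
        exact_mod_cast h2
      have hbound := hF (D * m) (Nat.mul_pos hD hmpos) s' hcard
        (fun x hx => hpos x (Multiset.mem_cons_of_mem hx))
        ⟨c * m - D, by omega, by
          rw [hs'sum, Nat.cast_sub hcm.le]
          push_cast
          field_simp⟩ n hn'
      apply le_trans hbound
      exact Finset.le_sup (f := fun m => F (D * m)) (Finset.mem_range.mpr (by omega))

/-- Landau's theorem: the order of a finite group is bounded in terms of its class number. -/
theorem landau (k : ℕ) : ∃ N : ℕ, ∀ (G : Type u) [Group G] [Finite G],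
    Nat.card (ConjClasses G) ≤ k → Nat.card G ≤ N := by
  have h := fun j : ℕ => landau_aux j 1 Nat.one_pos
  choose F hF using h
  refine ⟨(Finset.range (k + 1)).sup F, ?_⟩
  intro G _ _ hk
  classical
  obtain ⟨_⟩ := nonempty_fintype G
  have hfc : Fintype (ConjClasses G) := Fintype.ofFinite _
  obtain ⟨nn, hnn⟩ : ∃ nn : ConjClasses G → ℕ, ∀ x : ConjClasses G,
      nn x = Nat.card (Subgroup.centralizer ({x.out} : Set G)) := ⟨_, fun _ => rfl⟩
  have hmul : ∀ x : ConjClasses G, x.carrier.ncard * nn x = Nat.card G := by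
    intro x
    rw [hnn, ← Cfsg.Agent.Lib.Helper1.card_conj_mul_card_centralizer x.out]
    congr 1
    rw [← Nat.card_coe_set_eq]
    apply Nat.card_congr
    apply Equiv.subtypeEquivRight
    intro g
    rw [ConjClasses.mem_carrier_iff_mk_eq, ← ConjClasses.mk_eq_mk_iff_isConj]
    constructor
    · intro h
      rw [h]
      exact (Quotient.out_eq' x).symm
    · intro h
      rw [h]
      exact Quotient.out_eq' x
  have hGpos : 0 < Nat.card G := Nat.card_pos
  have hnpos : ∀ x : ConjClasses G, 0 < nn x := by
    intro x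
    rcases Nat.eq_zero_or_pos (nn x) with h | h
    · have := hmul x
      rw [h, mul_zero] at this
      omega
    · exact h
  have hsum : ∑ x : ConjClasses G, (1 : ℚ) / nn x = 1 := by
    have h1 := Group.sum_card_conj_classes_eq_card G
    rw [finsum_eq_sum_of_fintype] at h1
    have hGq : (Nat.card G : ℚ) ≠ 0 := by exact_mod_cast hGpos.ne'
    have e : ∀ x : ConjClasses G, (1 : ℚ) / nn x = (x.carrier.ncard : ℚ) / Nat.card G := by
      intro x
      have hx : (nn x : ℚ) ≠ 0 := by exact_mod_cast (hnpos x).ne'
      rw [div_eq_div_iff hx hGq, one_mul]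
      exact_mod_cast (hmul x).symm
    rw [Finset.sum_congr rfl (fun x _ => e x), ← Finset.sum_div, ← Nat.cast_sum, h1,
      div_self hGq]
  have hone : nn (ConjClasses.mk (1 : G)) = Nat.card G := by
    have h1 : IsConj (ConjClasses.mk (1 : G)).out 1 := by
      rw [← ConjClasses.mk_eq_mk_iff_isConj]
      exact Quotient.out_eq' _
    have h2 : (ConjClasses.mk (1 : G)).out = 1 := isConj_one_left.mp h1
    rw [hnn, h2]
    have h3 : Subgroup.centralizer ({1} : Set G) = ⊤ := by
      rw [Subgroup.centralizer_eq_top_iff_subset]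
      intro x hx
      rw [Set.mem_singleton_iff.mp hx]
      exact Subgroup.one_mem _
    rw [h3, Subgroup.card_top]
  have hb := hF (Nat.card (ConjClasses G)) (Finset.univ.val.map nn)
    (by rw [Multiset.card_map, Nat.card_eq_fintype_card]; rfl)
    (fun n hn => by
      obtain ⟨x, _, rfl⟩ := Multiset.mem_map.mp hn
      exact hnpos x)
    ⟨1, Nat.one_pos, by
      rw [Multiset.map_map]
      have : (Multiset.map ((fun n : ℕ => (1 : ℚ) / n) ∘ nn) Finset.univ.val).sum
          = ∑ x : ConjClasses G, (1 : ℚ) / nn x := rfl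
      rw [this, hsum]
      norm_num⟩
    (Nat.card G) (by
      rw [← hone]
      exact Multiset.mem_map_of_mem nn (Finset.mem_univ _))
  apply le_trans hb
  exact Finset.le_sup (f := F) (Finset.mem_range.mpr (by omega))

end Cfsg.Agent.Lib.Helper6
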