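import Mathlib

set_option autoImplicit false

namespace Cfsg.Agent.Lib.Helper6.NilCount

section Prod

variable {F : Type*} [Field F]
variable {Z C : Type*} [AddCommGroup Z] [Module F Z] [AddCommGroup C] [Module F C]

/-- the block endomorphism `(z, c) ↦ (J z + B c, M c)` -/
def blockEnd (J : Module.End F Z) (B : C →ₗ[F] Z) (M : Module.End F C) : Module.End F (Z × C) :=
  LinearMap.prod (J.coprod B) (M.comp (LinearMap.snd F Z C))

theorem blockEnd_apply (J : Module.End F Z) (B : C →ₗ[F] Z) (M : Module.End F C) (x : Z × C) :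
    blockEnd J B M x = (J x.1 + B x.2, M x.2) := by
  simp [blockEnd]

theorem blockEnd_pow_snd (J : Module.End F Z) (B : C →ₗ[F] Z) (M : Module.End F C) (k : ℕ)
    (x : Z × C) : ((blockEnd J B M ^ k) x).2 = (M ^ k) x.2 := by
  induction k generalizing x with
  | zero => simp
  | succ k ih =>
    rw [pow_succ, pow_succ, Module.End.mul_apply, ih, blockEnd_apply, Module.End.mul_apply]

theorem blockEnd_pow_zero (J : Module.End F Z) (B : C →ₗ[F] Z) (M : Module.End F C) (k : ℕ)
    (z : Z) : (blockEnd J B M ^ k) (z, 0) = ((J ^ k) z, 0) := by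
  induction k generalizing z with
  | zero => simp
  | succ k ih =>
    rw [pow_succ, Module.End.mul_apply, blockEnd_apply]
    simp only [map_zero, add_zero]
    rw [ih, pow_succ, Module.End.mul_apply]

theorem blockEnd_nilpotent_iff (J : Module.End F Z) (B : C →ₗ[F] Z) (M : Module.End F C)
    (hJ : IsNilpotent J) : IsNilpotent (blockEnd J B M) ↔ IsNilpotent M := by
  constructor
  · rintro ⟨k, hk⟩
    refine ⟨k, ?_⟩
    apply LinearMap.ext
    intro c
    have h := blockEnd_pow_snd J B M k (0, c)
    rw [hk] at h
    simpa using h.symm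
  · rintro ⟨k, hk⟩
    obtain ⟨j, hj⟩ := hJ
    refine ⟨j + k, ?_⟩
    apply LinearMap.ext
    intro x
    have h2 : ((blockEnd J B M ^ k) x).2 = 0 := by rw [blockEnd_pow_snd, hk]; simp
    have h3 : (blockEnd J B M ^ k) x = (((blockEnd J B M ^ k) x).1, 0) := Prod.ext rfl h2
    rw [pow_add, Module.End.mul_apply, h3, blockEnd_pow_zero, hj]
    simp

/-- endomorphisms of `Z × C` extending `J` on `Z × 0` -/
def blockEquiv (J : Module.End F Z) :
    {N : Module.End F (Z × C) // ∀ z : Z, N (z, 0) = (J z, 0)} ≃
      (C →ₗ[F] Z) × Module.End F C where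
  toFun N := ((LinearMap.fst F Z C).comp (N.1.comp (LinearMap.inr F Z C)),
    (LinearMap.snd F Z C).comp (N.1.comp (LinearMap.inr F Z C)))
  invFun BM := ⟨blockEnd J BM.1 BM.2, fun z => by simp [blockEnd_apply]⟩
  left_inv N := by
    apply Subtype.ext
    apply LinearMap.ext
    intro x
    have hx : x = (x.1, 0) + (0, x.2) := by simp
    have h1 : N.1 x = N.1 (x.1, 0) + N.1 (0, x.2) := by
      conv_lhs => rw [hx]
      rw [map_add]
    rw [h1, N.2 x.1, blockEnd_apply]
    apply Prod.ext <;> simp
  right_inv BM := by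
    apply Prod.ext
    · apply LinearMap.ext
      intro c
      simp [blockEnd_apply]
    · apply LinearMap.ext
      intro c
      simp [blockEnd_apply]

/-- nilpotent endomorphisms of `Z × C` extending `J` on `Z × 0` -/
def nilBlockEquiv (J : Module.End F Z) (hJ : IsNilpotent J) :
    {N : Module.End F (Z × C) // IsNilpotent N ∧ ∀ z : Z, N (z, 0) = (J z, 0)} ≃
      (C →ₗ[F] Z) × {M : Module.End F C // IsNilpotent M} where
  toFun N := ((blockEquiv J ⟨N.1, N.2.2⟩).1, ⟨(blockEquiv J ⟨N.1, N.2.2⟩).2, by
    have h := (blockEquiv J).left_inv ⟨N.1, N.2.2⟩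
    have h' : blockEnd J (blockEquiv J ⟨N.1, N.2.2⟩).1 (blockEquiv J ⟨N.1, N.2.2⟩).2 = N.1 :=
      congrArg Subtype.val h
    rw [← blockEnd_nilpotent_iff J (blockEquiv J ⟨N.1, N.2.2⟩).1 _ hJ, h']
    exact N.2.1⟩)
  invFun BM := ⟨blockEnd J BM.1 BM.2.1, (blockEnd_nilpotent_iff J _ _ hJ).mpr BM.2.2,
    fun z => by simp [blockEnd_apply]⟩
  left_inv N := by
    apply Subtype.ext
    have h := congrArg Subtype.val ((blockEquiv J).left_inv ⟨N.1, N.2.2⟩)
    exact h
  right_inv BM := by
    have h := (blockEquiv J).right_inv (BM.1, BM.2.1)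
    have h1 := congrArg Prod.fst h
    have h2 := congrArg Prod.snd h
    apply Prod.ext
    · exact h1
    · apply Subtype.ext
      exact h2

end Prod

section Chain

variable {F : Type*} [Field F] {V : Type*} [AddCommGroup V] [Module F V]

/-- nilpotent endomorphisms with a prescribed chain -/
def ChainSet {d : ℕ} (v : Fin (d + 1) → V) : Set (Module.End F V) :=
  {N | IsNilpotent N ∧ ∀ i : Fin d, N (v i.castSucc) = v i.succ}

theorem mem_chainSet {d : ℕ} (v : Fin (d + 1) → V) (N : Module.End F V) :
    N ∈ ChainSet v ↔ IsNilpotent N ∧ ∀ i : Fin d, N (v i.castSucc) = v i.succ := Iff.rfl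

/-- extending a chain by one more vector -/
theorem mem_chainSet_snoc {d : ℕ} (v : Fin (d + 1) → V) (w : V) (N : Module.End F V) :
    N ∈ ChainSet (Fin.snoc v w : Fin (d + 1 + 1) → V) ↔
      N ∈ ChainSet v ∧ N (v (Fin.last d)) = w := by
  rw [mem_chainSet, mem_chainSet, Fin.forall_fin_succ']
  have h1 : ∀ i : Fin d, (Fin.snoc v w : Fin (d + 1 + 1) → V) i.castSucc.castSucc = v i.castSucc :=
    fun i => Fin.snoc_castSucc (α := fun _ => V) w v i.castSucc
  have h2 : ∀ i : Fin d, (Fin.snoc v w : Fin (d + 1 + 1) → V) i.castSucc.succ = v i.succ := by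
    intro i
    rw [Fin.succ_castSucc]
    exact Fin.snoc_castSucc (α := fun _ => V) w v i.succ
  have h3 : (Fin.snoc v w : Fin (d + 1 + 1) → V) (Fin.last d).castSucc = v (Fin.last d) :=
    Fin.snoc_castSucc (α := fun _ => V) w v (Fin.last d)
  have h4 : (Fin.snoc v w : Fin (d + 1 + 1) → V) (Fin.last d).succ = w := by
    rw [Fin.succ_last]
    exact Fin.snoc_last (α := fun _ => V) w v
  simp only [h1, h2, h3, h4]
  tauto

theorem chain_last_eq_zero [Module.Finite F V] {d : ℕ} (v : Fin (d + 1) → V)
    (hv : LinearIndependent F v) (N : Module.End F V) (hN : N ∈ ChainSet v)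
    (hw : N (v (Fin.last d)) ∈ Submodule.span F (Set.range v)) : N (v (Fin.last d)) = 0 := by
  obtain ⟨hnil, hch⟩ := hN
  have hinv : ∀ x ∈ Submodule.span F (Set.range v), N x ∈ Submodule.span F (Set.range v) := by
    intro x hx
    have hle : Submodule.span F (Set.range v) ≤ (Submodule.span F (Set.range v)).comap N := by
      rw [Submodule.span_le]
      rintro _ ⟨i, rfl⟩
      show N (v i) ∈ Submodule.span F (Set.range v)
      refine Fin.lastCases ?_ (fun j => ?_) i
      · exact hw
      · rw [hch j]; exact Submodule.subset_span ⟨_, rfl⟩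
    exact hle hx
  have hpow : ∀ i : Fin (d + 1), v i = (N ^ (i : ℕ)) (v 0) := by
    intro i
    induction i using Fin.induction with
    | zero => simp
    | succ j ih =>
      rw [← hch j, ih, Fin.val_succ, pow_succ', Module.End.mul_apply]
      simp
  have hlast : N (v (Fin.last d)) = (N ^ (d + 1)) (v 0) := by
    rw [hpow (Fin.last d), Fin.val_last, pow_succ', Module.End.mul_apply]
  have hAnil : IsNilpotent (N.restrict hinv) := by
    obtain ⟨k, hk⟩ := hnil
    refine ⟨k, ?_⟩
    rw [Module.End.pow_restrict]
    apply LinearMap.ext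
    intro z
    apply Subtype.ext
    simp [LinearMap.restrict_apply, hk]
  have hfr : Module.finrank F (Submodule.span F (Set.range v)) = d + 1 := by
    rw [finrank_span_eq_card hv, Fintype.card_fin]
  have hApow : (N.restrict hinv) ^ (d + 1) = 0 := by
    have h1 := LinearMap.aeval_self_charpoly (N.restrict hinv)
    rw [hAnil.charpoly_eq_X_pow_finrank, hfr] at h1
    simpa using h1
  have hz0 : v 0 ∈ Submodule.span F (Set.range v) := Submodule.subset_span ⟨0, rfl⟩
  have h2 : (((N.restrict hinv) ^ (d + 1)) ⟨v 0, hz0⟩ : V) = (N ^ (d + 1)) (v 0) := by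
    rw [Module.End.pow_restrict]
    rfl
  rw [hlast, ← h2, hApow]
  simp

theorem card_chain_zero {d : ℕ} (v : Fin (d + 1) → V) (hv : LinearIndependent F v)
    (C : Submodule F V) (hC : IsCompl (Submodule.span F (Set.range v)) C) :
    Nat.card (ChainSet (F := F) (Fin.snoc v (0 : V) : Fin (d + 1 + 1) → V)) =
      Nat.card (C →ₗ[F] Submodule.span F (Set.range v)) *
        Nat.card {M : Module.End F C // IsNilpotent M} := by
  classical
  let b : Module.Basis (Fin (d + 1)) F (Submodule.span F (Set.range v)) := Module.Basis.span hv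
  have hb : ∀ i, (b i : V) = v i := fun i => by
    simp [b, Module.Basis.span_apply]
  let J : Module.End F (Submodule.span F (Set.range v)) :=
    b.constr F (fun i : Fin (d + 1) => if h : (i : ℕ) + 1 < d + 1 then b ⟨(i : ℕ) + 1, h⟩ else 0)
  have hJb : ∀ i : Fin (d + 1),
      J (b i) = if h : (i : ℕ) + 1 < d + 1 then b ⟨(i : ℕ) + 1, h⟩ else 0 := by
    intro i
    simp only [J, Module.Basis.constr_basis]
  have hJpow : ∀ k : ℕ, ∀ i : Fin (d + 1),
      (J ^ k) (b i) = if h : (i : ℕ) + k < d + 1 then b ⟨(i : ℕ) + k, h⟩ else 0 := by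
    intro k
    induction k with
    | zero =>
      intro i
      rw [dif_pos (by have := i.2; omega)]
      simp
    | succ k ih =>
      intro i
      rw [pow_succ, Module.End.mul_apply, hJb]
      by_cases h : (i : ℕ) + 1 < d + 1
      · rw [dif_pos h, ih]
        by_cases h' : (i : ℕ) + (k + 1) < d + 1
        · rw [dif_pos h', dif_pos (by simp only; omega)]
          congr 1
          apply Fin.ext
          simp only
          omega
        · rw [dif_neg h', dif_neg (by simp only; omega)]
      · rw [dif_neg h, map_zero, dif_neg (by omega)]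
  have hJnil : IsNilpotent J := by
    refine ⟨d + 1, ?_⟩
    apply b.ext
    intro i
    rw [hJpow, dif_neg (by omega)]
    simp
  have hmem : ∀ N : Module.End F V, N ∈ ChainSet (Fin.snoc v (0 : V) : Fin (d + 1 + 1) → V) ↔
      IsNilpotent N ∧ ∀ z : Submodule.span F (Set.range v), N (z : V) = (J z : V) := by
    intro N
    rw [mem_chainSet_snoc, mem_chainSet]
    constructor
    · rintro ⟨⟨h1, h2⟩, h3⟩
      refine ⟨h1, ?_⟩
      have heq : N.comp (Submodule.span F (Set.range v)).subtype =
          (Submodule.span F (Set.range v)).subtype.comp J := by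
        apply b.ext
        intro i
        simp only [LinearMap.comp_apply, Submodule.subtype_apply]
        rw [hJb, hb]
        refine Fin.lastCases ?_ (fun j => ?_) i
        · rw [h3, dif_neg (by simp)]
          simp
        · rw [h2 j, dif_pos (by have := j.2; simp only [Fin.val_castSucc]; omega), ← hb]
          congr 2
      intro z
      exact LinearMap.congr_fun heq z
    · rintro ⟨h1, h2⟩
      refine ⟨⟨h1, fun i => ?_⟩, ?_⟩
      · rw [← hb, h2 (b i.castSucc), hJb,
          dif_pos (by have := i.2; simp only [Fin.val_castSucc]; omega), ← hb]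
        congr 2
      · rw [← hb, h2 (b (Fin.last d)), hJb, dif_neg (by simp)]
        simp
  let e : (Submodule.span F (Set.range v) × C) ≃ₗ[F] V :=
    Submodule.prodEquivOfIsCompl (Submodule.span F (Set.range v)) C hC
  have hRapply : ∀ (N' : Module.End F (Submodule.span F (Set.range v) × C)) (x : V),
      (e.conjRingEquiv N') x = e (N' (e.symm x)) := by
    intro N' x
    rfl
  have hP : ∀ N' : Module.End F (Submodule.span F (Set.range v) × C),
      (IsNilpotent N' ∧ ∀ z : Submodule.span F (Set.range v), N' (z, 0) = (J z, 0)) ↔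
        e.conjRingEquiv N' ∈ ChainSet (Fin.snoc v (0 : V) : Fin (d + 1 + 1) → V) := by
    intro N'
    rw [hmem]
    constructor
    · rintro ⟨h1, h2⟩
      refine ⟨h1.map e.conjRingEquiv, fun z => ?_⟩
      rw [hRapply]
      have hs : e.symm (z : V) = (z, 0) :=
        Submodule.prodEquivOfIsCompl_symm_apply_left _ _ hC z
      rw [hs, h2]
      simp [e, Submodule.coe_prodEquivOfIsCompl']
    · rintro ⟨h1, h2⟩
      refine ⟨by simpa using h1.map e.conjRingEquiv.symm, fun z => ?_⟩
      have h3 := h2 z
      have hs : e.symm (z : V) = (z, 0) :=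
        Submodule.prodEquivOfIsCompl_symm_apply_left _ _ hC z
      rw [hRapply, hs] at h3
      apply e.injective
      rw [h3]
      simp [e, Submodule.coe_prodEquivOfIsCompl']
  have hcard1 : Nat.card (ChainSet (F := F) (Fin.snoc v (0 : V) : Fin (d + 1 + 1) → V)) =
      Nat.card {N' : Module.End F (Submodule.span F (Set.range v) × C) //
        IsNilpotent N' ∧ ∀ z : Submodule.span F (Set.range v), N' (z, 0) = (J z, 0)} :=
    (Nat.card_congr (Equiv.subtypeEquiv e.conjRingEquiv.toEquiv (fun N' => hP N'))).symm
  rw [hcard1, Nat.card_congr (nilBlockEquiv J hJnil), Nat.card_prod]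

end Chain

section Main

universe u

variable {F : Type u} [Field F] [Fintype F]

theorem card_fiber_sum {α β : Type*} [Finite α] [Fintype β] (f : α → β) :
    Nat.card α = ∑ b, Nat.card {a // f a = b} := by
  rw [← Nat.card_sigma]
  exact Nat.card_congr (Equiv.sigmaFiberEquiv f).symm

theorem card_chain_last {V : Type u} [AddCommGroup V] [Module F V] {d : ℕ}
    (v : Fin (d + 1) → V) (w : V) :
    Nat.card {N : ChainSet (F := F) v // N.1 (v (Fin.last d)) = w} =
      Nat.card (ChainSet (F := F) (Fin.snoc v w : Fin (d + 1 + 1) → V)) := by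
  apply Nat.card_congr
  exact
    { toFun := fun N => ⟨N.1.1, (mem_chainSet_snoc v w N.1.1).mpr ⟨N.1.2, N.2⟩⟩
      invFun := fun N => ⟨⟨N.1, ((mem_chainSet_snoc v w N.1).mp N.2).1⟩,
        ((mem_chainSet_snoc v w N.1).mp N.2).2⟩
      left_inv := fun N => rfl
      right_inv := fun N => rfl }

/-- the count of nilpotent endomorphisms from the chain count in the same dimension -/
theorem card_nil_of_aux (m : ℕ) (W : Type u) [AddCommGroup W] [Module F W] [Finite W]
    (hW : Module.finrank F W = m)
    (haux : 1 ≤ m → ∀ (k d : ℕ) (v : Fin (d + 1) → W), LinearIndependent F v → m = d + 1 + k →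
      Nat.card (ChainSet (F := F) v) = Fintype.card F ^ (m * k)) :
    Nat.card {M : Module.End F W // IsNilpotent M} = Fintype.card F ^ (m * (m - 1)) := by
  rcases Nat.eq_zero_or_pos m with hm0 | hmpos
  · have hsub : Subsingleton W := by
      apply (Module.finrank_zero_iff (R := F)).mp
      rw [hW, hm0]
    have hsubE : Subsingleton (Module.End F W) :=
      ⟨fun a b => LinearMap.ext fun x => Subsingleton.elim _ _⟩
    rw [hm0]
    simp only [zero_mul, pow_zero]
    rw [Nat.card_eq_one_iff_unique]
    exact ⟨inferInstance, ⟨⟨0, IsNilpotent.zero⟩⟩⟩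
  · have hnt : Nontrivial W := Module.nontrivial_of_finrank_pos (R := F) (by rw [hW]; exact hmpos)
    obtain ⟨x, hx⟩ := exists_ne (0 : W)
    haveI : Unique (Fin (0 + 1)) := inferInstanceAs (Unique (Fin 1))
    have hind : LinearIndependent F (fun _ : Fin (0 + 1) => x) :=
      linearIndependent_unique_iff.mpr hx
    have h1 := haux hmpos (m - 1) 0 (fun _ => x) hind (by omega)
    rw [← h1]
    apply Nat.card_congr
    apply Equiv.subtypeEquivRight
    intro M
    rw [mem_chainSet]
    constructor
    · intro h
      exact ⟨h, fun i => i.elim0⟩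
    · intro h
      exact h.1

theorem card_chainSet_aux : ∀ (n : ℕ) (V : Type u) [AddCommGroup V] [Module F V] [Finite V],
    Module.finrank F V = n → ∀ (k d : ℕ) (v : Fin (d + 1) → V), LinearIndependent F v →
      n = d + 1 + k → Nat.card (ChainSet (F := F) v) = Fintype.card F ^ (n * k) := by
  intro n
  induction n using Nat.strong_induction_on with
  | _ n IHn =>
  intro V _ _ _ hfin k
  induction k using Nat.strong_induction_on with
  | _ k IHk =>
  intro d v hv hn
  classical
  haveI : Fintype V := Fintype.ofFinite V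
  haveI hfinEnd : Finite (Module.End F V) :=
    Finite.of_injective (fun f : Module.End F V => (f : V → V)) DFunLike.coe_injective
  have hZfr : Module.finrank F (Submodule.span F (Set.range v)) = d + 1 := by
    rw [finrank_span_eq_card hv, Fintype.card_fin]
  have h1 : Nat.card (ChainSet (F := F) v) =
      ∑ w : V, Nat.card (ChainSet (F := F) (Fin.snoc v w : Fin (d + 1 + 1) → V)) := by
    rw [card_fiber_sum (fun N : ChainSet (F := F) v => N.1 (v (Fin.last d)))]
    apply Finset.sum_congr rfl
    intro w _
    exact card_chain_last v w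
  have h3a : ∀ w : V, w ∉ Submodule.span F (Set.range v) →
      Nat.card (ChainSet (F := F) (Fin.snoc v w : Fin (d + 1 + 1) → V)) =
        Fintype.card F ^ (n * (k - 1)) := by
    intro w hw
    have hind : LinearIndependent F (Fin.snoc v w : Fin (d + 1 + 1) → V) :=
      linearIndependent_finSnoc.mpr ⟨hv, hw⟩
    have hk1 : 1 ≤ k := by
      have h := hind.fintype_card_le_finrank
      rw [Fintype.card_fin, hfin] at h
      omega
    exact IHk (k - 1) (by omega) (d + 1) _ hind (by omega)
  have h3b : ∀ w : V, w ∈ Submodule.span F (Set.range v) → w ≠ 0 →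
      Nat.card (ChainSet (F := F) (Fin.snoc v w : Fin (d + 1 + 1) → V)) = 0 := by
    intro w hw hw0
    rw [Nat.card_eq_zero]
    left
    constructor
    rintro ⟨N, hN⟩
    obtain ⟨hN1, hN2⟩ := (mem_chainSet_snoc v w N).mp hN
    have h := chain_last_eq_zero v hv N hN1 (by rw [hN2]; exact hw)
    rw [hN2] at h
    exact hw0 h
  obtain ⟨C, hC⟩ := Submodule.exists_isCompl (Submodule.span F (Set.range v))
  have hCfr : Module.finrank F C = k := by
    have h := Submodule.finrank_add_eq_of_isCompl hC
    rw [hZfr, hfin] at h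
    omega
  have hnil : Nat.card {M : Module.End F C // IsNilpotent M} =
      Fintype.card F ^ (k * (k - 1)) := by
    apply card_nil_of_aux k C hCfr
    intro hk1
    exact IHn k (by omega) C hCfr
  have h3c : Nat.card (ChainSet (F := F) (Fin.snoc v (0 : V) : Fin (d + 1 + 1) → V)) =
      Fintype.card F ^ (k * (d + 1)) * Fintype.card F ^ (k * (k - 1)) := by
    rw [card_chain_zero v hv C hC, hnil]
    congr 1
    rw [Module.natCard_eq_pow_finrank (K := F), Module.finrank_linearMap, hCfr, hZfr,
      Nat.card_eq_fintype_card]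
  rw [h1, ← Finset.sum_filter_add_sum_filter_not Finset.univ
    (fun w : V => w ∈ Submodule.span F (Set.range v))]
  have hs1 : ∑ w ∈ Finset.univ.filter (fun w : V => w ∈ Submodule.span F (Set.range v)),
      Nat.card (ChainSet (F := F) (Fin.snoc v w : Fin (d + 1 + 1) → V)) =
        Fintype.card F ^ (k * (d + 1)) * Fintype.card F ^ (k * (k - 1)) := by
    rw [Finset.sum_eq_single (0 : V)]
    · exact h3c
    · intro w hw hw0
      exact h3b w (Finset.mem_filter.mp hw).2 hw0
    · intro h0
      exact absurd (Finset.mem_filter.mpr ⟨Finset.mem_univ _, Submodule.zero_mem _⟩) h0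
  have hs2 : ∑ w ∈ Finset.univ.filter (fun w : V => w ∉ Submodule.span F (Set.range v)),
      Nat.card (ChainSet (F := F) (Fin.snoc v w : Fin (d + 1 + 1) → V)) =
        (Fintype.card F ^ n - Fintype.card F ^ (d + 1)) * Fintype.card F ^ (n * (k - 1)) := by
    rw [Finset.sum_congr rfl (fun w hw => h3a w (Finset.mem_filter.mp hw).2), Finset.sum_const,
      smul_eq_mul]
    congr 1
    have hcV : Fintype.card V = Fintype.card F ^ n := by
      rw [← hfin]
      exact Module.card_eq_pow_finrank (K := F) (V := V)
    have hcZ : (Finset.univ.filter (fun w : V => w ∈ Submodule.span F (Set.range v))).card =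
        Fintype.card F ^ (d + 1) := by
      have hc : (Finset.univ.filter (fun w : V => w ∈ Submodule.span F (Set.range v))).card =
          Nat.card (Submodule.span F (Set.range v)) := by
        rw [Nat.card_eq_fintype_card, Fintype.card_subtype]
      rw [hc, Module.natCard_eq_pow_finrank (K := F), hZfr, Nat.card_eq_fintype_card]
    have h := Finset.card_filter_add_card_filter_not (s := (Finset.univ : Finset V))
      (fun w : V => w ∈ Submodule.span F (Set.range v))
    rw [Finset.card_univ, hcV, hcZ] at h
    omega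
  rw [hs1, hs2]
  rcases Nat.eq_zero_or_pos k with hk0 | hkpos
  · subst hk0
    have hnd : n = d + 1 := by omega
    rw [hnd]
    simp
  · obtain ⟨j, rfl⟩ : ∃ j, k = j + 1 := ⟨k - 1, by omega⟩
    have e1 : Fintype.card F ^ ((j + 1) * (d + 1)) * Fintype.card F ^ ((j + 1) * (j + 1 - 1)) =
        Fintype.card F ^ (d + 1) * Fintype.card F ^ (n * j) := by
      rw [← pow_add, ← pow_add]
      congr 1
      rw [hn]
      simp only [Nat.add_sub_cancel]
      ring
    have e2 : Fintype.card F ^ (d + 1) ≤ Fintype.card F ^ n :=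
      Nat.pow_le_pow_right Fintype.card_pos (by omega)
    rw [e1]
    simp only [Nat.add_sub_cancel]
    calc Fintype.card F ^ (d + 1) * Fintype.card F ^ (n * j) +
          (Fintype.card F ^ n - Fintype.card F ^ (d + 1)) * Fintype.card F ^ (n * j)
        = (Fintype.card F ^ (d + 1) + (Fintype.card F ^ n - Fintype.card F ^ (d + 1))) *
            Fintype.card F ^ (n * j) := by ring
      _ = Fintype.card F ^ n * Fintype.card F ^ (n * j) := by rw [Nat.add_sub_cancel' e2]
      _ = Fintype.card F ^ (n * (j + 1)) := by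
          rw [← pow_add]
          congr 1
          ring

/-- Fine–Herstein: the number of nilpotent endomorphisms -/
theorem card_nilpotent_end (V : Type u) [AddCommGroup V] [Module F V] [Finite V] :
    Nat.card {N : Module.End F V // IsNilpotent N} =
      Fintype.card F ^ (Module.finrank F V * (Module.finrank F V - 1)) :=
  card_nil_of_aux _ V rfl (fun _ => card_chainSet_aux _ V rfl)

theorem card_nilpotent_matrix (n : ℕ) :
    Nat.card {N : Matrix (Fin n) (Fin n) F // IsNilpotent N} = Fintype.card F ^ (n * (n - 1)) := by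
  classical
  have h := card_nilpotent_end (F := F) (Fin n → F)
  rw [Module.finrank_fin_fun] at h
  rw [← h]
  apply Nat.card_congr
  apply Equiv.subtypeEquiv (Matrix.toLinAlgEquiv' : Matrix (Fin n) (Fin n) F ≃ₐ[F] _).toEquiv
  intro N
  constructor
  · intro hN
    exact hN.map (Matrix.toLinAlgEquiv' : Matrix (Fin n) (Fin n) F ≃ₐ[F] _)
  · intro hN
    have := hN.map (Matrix.toLinAlgEquiv' : Matrix (Fin n) (Fin n) F ≃ₐ[F] _).symm
    simpa using this

end Main

end Cfsg.Agent.Lib.Helper6.NilCount
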