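import Mathlib
import Cfsg.Prelude.Def_Blocks
import Cfsg.Agent.Lib.Helper6.Aug
import Cfsg.Agent.Lib.Helper6.Conv
import Cfsg.Agent.Lib.Helper1.CharComplete

set_option autoImplicit false
set_option linter.unusedSectionVars false
set_option linter.unusedVariables false

/-!
# Central elements with central character values in the local ideal are nilpotent modulo it

* `exists_cpow_mem_of_omega_mem`: a class function with values in the local ring all of whose
  central character values lie in the local ideal has a convolution power with values in the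
  local ideal;
* `cpow_mem_of_le`: so do all higher powers.
-/

namespace Cfsg.Agent.Lib.Helper6

open Cfsg

universe u

variable {G : Type u} [Group G] [Fintype G] {M : Ideal AlgInt}

/-- The product of the `z - c` over a list of scalars `c`. -/
noncomputable def linProd (z : G → ℂ) : List ℂ → (G → ℂ)
  | [] => cdelta
  | c :: L => cconv (z - c • (cdelta : G → ℂ)) (linProd z L)

theorem isClassFunction_linProd {z : G → ℂ} (hz : IsClassFunction G z) (L : List ℂ) :
    IsClassFunction G (linProd z L) := by
  induction L with
  | nil => exact isClassFunction_cdelta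
  | cons c L ih =>
    exact isClassFunction_cconv (Cfsg.Agent.Lib.Helper1.isClassFunction_sub hz
      (Cfsg.Agent.Lib.Helper1.isClassFunction_smul c isClassFunction_cdelta)) ih

theorem sVal_linProd (hM : M.IsMaximal) {z : G → ℂ} (hS : SVal M z) (L : List ℂ)
    (hL : ∀ c ∈ L, MemLocalRing M c) : SVal M (linProd z L) := by
  induction L with
  | nil => exact sVal_cdelta hM
  | cons c L ih =>
    exact SVal.cconv hM (SVal.sub hM hS (SVal.smul hM (hL c (by simp)) (sVal_cdelta hM)))
      (ih (fun c' hc' => hL c' (by simp [hc'])))

theorem omega_linProd {χ z : G → ℂ} (hχ : IsIrrCharacter G χ) (hz : IsClassFunction G z)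
    (L : List ℂ) : omega χ (linProd z L) = (L.map (fun c => omega χ z - c)).prod := by
  induction L with
  | nil =>
    show omega χ (cdelta : G → ℂ) = _
    rw [omega_cdelta (irr_one_ne_zero hχ)]
    simp
  | cons c L ih =>
    show omega χ (cconv (z - c • (cdelta : G → ℂ)) (linProd z L)) = _
    rw [omega_cconv hχ (Cfsg.Agent.Lib.Helper1.isClassFunction_sub hz
      (Cfsg.Agent.Lib.Helper1.isClassFunction_smul c isClassFunction_cdelta))
      (isClassFunction_linProd hz L), ih, omega_sub, omega_smul,
      omega_cdelta (irr_one_ne_zero hχ), mul_one, List.map_cons, List.prod_cons]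

theorem linProd_sub_cpow_mem (hM : M.IsMaximal) {z : G → ℂ} (hS : SVal M z) (L : List ℂ)
    (hL : ∀ c ∈ L, MemLocalIdeal M c) (g : G) :
    MemLocalIdeal M (linProd z L g - cpow z L.length g) := by
  induction L generalizing g with
  | nil =>
    show MemLocalIdeal M ((cdelta : G → ℂ) g - (cdelta : G → ℂ) g)
    rw [sub_self]
    exact memLocalIdeal_zero hM
  | cons c L ih =>
    have hL' : ∀ c' ∈ L, MemLocalIdeal M c' := fun c' hc' => hL c' (by simp [hc'])
    have hc : MemLocalIdeal M c := hL c (by simp)
    have e : linProd z (c :: L) g - cpow z (c :: L).length g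
        = cconv z (linProd z L - cpow z L.length) g - c * linProd z L g := by
      show cconv (z - c • (cdelta : G → ℂ)) (linProd z L) g - cconv z (cpow z L.length) g = _
      rw [cconv_sub_left, cconv_smul_left, cdelta_cconv, cconv_sub_right]
      simp only [Pi.sub_apply, Pi.smul_apply, smul_eq_mul]
      ring
    rw [e]
    apply MemLocalIdeal.sub hM
    · rw [cconv_apply]
      apply memLocalIdeal_sum hM
      intro h _
      exact MemLocalIdeal.mul_left hM (hS h) (ih hL' _)
    · exact MemLocalIdeal.mul_right hM hc
        (sVal_linProd hM hS L (fun c' hc' => MemLocalIdeal.memLocalRing (hL' c' hc')) g)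

/-- A class function with values in the local ring all of whose central character values lie in
the local ideal has a convolution power with values in the local ideal. -/
theorem exists_cpow_mem_of_omega_mem (hM : M.IsMaximal) {z : G → ℂ} (hz : IsClassFunction G z)
    (hS : SVal M z) (hω : ∀ χ : IrrCharacter G, MemLocalIdeal M (omega (χ : G → ℂ) z)) :
    ∃ k : ℕ, ∀ g : G, MemLocalIdeal M (cpow z k g) := by
  classical
  haveI : Fintype (IrrCharacter G) := Cfsg.Agent.Lib.Helper1.irrFintype
  obtain ⟨L, hLdef⟩ : ∃ L : List ℂ, L = (Finset.univ : Finset (IrrCharacter G)).toList.map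
      (fun χ : IrrCharacter G => omega (χ : G → ℂ) z) := ⟨_, rfl⟩
  have hL : ∀ c ∈ L, MemLocalIdeal M c := by
    intro c hc
    rw [hLdef] at hc
    obtain ⟨χ, -, rfl⟩ := List.mem_map.mp hc
    exact hω χ
  have hzero : linProd z L = 0 := by
    apply eq_of_omega_eq (isClassFunction_linProd hz L)
      Cfsg.Agent.Lib.Helper1.isClassFunction_zero
    intro ψ
    rw [omega_linProd ψ.2 hz, omega_zero]
    apply List.prod_eq_zero
    rw [List.mem_map]
    refine ⟨omega (ψ : G → ℂ) z, ?_, sub_self _⟩
    rw [hLdef, List.mem_map]
    exact ⟨ψ, Finset.mem_toList.mpr (Finset.mem_univ _), rfl⟩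
  refine ⟨L.length, fun g => ?_⟩
  have h1 := linProd_sub_cpow_mem hM hS L hL g
  rw [hzero] at h1
  have h2 := MemLocalIdeal.neg h1
  simpa using h2

theorem cpow_mem_of_le (hM : M.IsMaximal) {z : G → ℂ} (hS : SVal M z) {k : ℕ}
    (hk : ∀ g : G, MemLocalIdeal M (cpow z k g)) {N : ℕ} (hN : k ≤ N) (g : G) :
    MemLocalIdeal M (cpow z N g) := by
  obtain ⟨i, rfl⟩ : ∃ i, N = k + i := ⟨N - k, by omega⟩
  clear hN
  induction i generalizing g with
  | zero => exact hk g
  | succ i ih =>
    show MemLocalIdeal M (cconv z (cpow z (k + i)) g)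
    rw [cconv_apply]
    apply memLocalIdeal_sum hM
    intro h _
    exact MemLocalIdeal.mul_left hM (hS h) (ih _)

end Cfsg.Agent.Lib.Helper6
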