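import Mathlib
import Cfsg.Prelude.Def_Blocks
import Cfsg.Agent.Lib.Helper6.Aug
import Cfsg.Agent.Lib.Helper6.Conv

set_option autoImplicit false
set_option linter.unusedSectionVars false
set_option linter.unusedVariables false

/-!
# The `p^n`-th power of an element of the group algebra modulo commutators

* `cpow_eq_sum_vectors`: the convolution power as a sum over vectors;
* `cpow_one_sub_sum_pow_mem`: the coefficient of `1` in `b^(p^n)` is congruent to the sum of the
  `b(g)^(p^n)` over the `g` with `g^(p^n) = 1`;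
* `sum_pow_sub_mem`: the `p^n`-th power map is additive modulo the local ideal;
* `cpow_shift`: powers of a translate of a central function.
-/

namespace Cfsg.Agent.Lib.Helper6

open Cfsg

universe u

variable {G : Type u} [Group G] [Fintype G] {M : Ideal AlgInt}

/-- The weight of a vector of group elements. -/
noncomputable def vecWeight (b : G → ℂ) {n : ℕ} (v : List.Vector G n) : ℂ :=
  (v.toList.map b).prod

open Classical in
theorem cpow_eq_sum_vectors (b : G → ℂ) (n : ℕ) (x : G) :
    cpow b n x = ∑ v : List.Vector G n, if v.toList.prod = x then vecWeight b v else 0 := by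
  induction n generalizing x with
  | zero =>
    show (cdelta : G → ℂ) x = _
    rw [Fintype.sum_eq_single List.Vector.nil (fun v hv => absurd v.eq_nil hv)]
    unfold cdelta vecWeight
    simp [eq_comm]
  | succ n ih =>
    show cconv b (cpow b n) x = _
    rw [cconv_apply]
    let e : G × List.Vector G n ≃ List.Vector G (n + 1) :=
      { toFun := fun gv => gv.1 ::ᵥ gv.2
        invFun := fun v => (v.head, v.tail)
        left_inv := fun gv => by simp
        right_inv := fun v => by simp }
    rw [← Equiv.sum_comp e, Fintype.sum_prod_type]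
    apply Finset.sum_congr rfl
    intro g _
    rw [ih, Finset.mul_sum]
    apply Finset.sum_congr rfl
    intro v _
    show b g * (if v.toList.prod = g⁻¹ * x then vecWeight b v else 0) =
      if (g ::ᵥ v).toList.prod = x then vecWeight b (g ::ᵥ v) else 0
    have h1 : (g ::ᵥ v).toList.prod = g * v.toList.prod := by simp
    have h2 : vecWeight b (g ::ᵥ v) = b g * vecWeight b v := by
      unfold vecWeight
      simp
    rw [h1, h2]
    by_cases h : v.toList.prod = g⁻¹ * x
    · rw [if_pos h, if_pos (by rw [h, mul_inv_cancel_left])]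
    · rw [if_neg h, if_neg (fun h' => h (by rw [← h', inv_mul_cancel_left])), mul_zero]

theorem memLocalRing_list_prod (hM : M.IsMaximal) (l : List ℂ)
    (h : ∀ z ∈ l, MemLocalRing M z) : MemLocalRing M l.prod := by
  induction l with
  | nil => simpa using memLocalRing_one hM
  | cons a l ih =>
    rw [List.prod_cons]
    exact MemLocalRing.mul hM (h a (by simp)) (ih (fun z hz => h z (by simp [hz])))

theorem memLocalRing_vecWeight (hM : M.IsMaximal) {b : G → ℂ} (hb : SVal M b) {n : ℕ}
    (v : List.Vector G n) : MemLocalRing M (vecWeight b v) := by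
  unfold vecWeight
  apply memLocalRing_list_prod hM
  intro z hz
  obtain ⟨g, -, rfl⟩ := List.mem_map.mp hz
  exact hb g

open Classical in
/-- The coefficient of `1` in `b^(p^n)` modulo the local ideal. -/
theorem cpow_one_sub_sum_pow_mem {p : ℕ} (hM : IsPModular p M) (b : G → ℂ) (hb : SVal M b)
    (n : ℕ) :
    MemLocalIdeal M (cpow b (p ^ n) 1 -
      ∑ g ∈ Finset.univ.filter (fun g : G => g ^ (p ^ n) = 1), b g ^ (p ^ n)) := by
  have hp := hM.1
  have hmax := hM.2.1
  obtain ⟨N, hN⟩ : ∃ N : ℕ, N = p ^ n := ⟨_, rfl⟩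
  rw [← hN]
  have hNpos : 0 < N := by
    rw [hN]
    exact pow_pos hp.pos n
  have h1 : cpow b N 1 = ∑ v : Equiv.Perm.vectorsProdEqOne G N, vecWeight b v.1 := by
    rw [cpow_eq_sum_vectors, ← Finset.sum_filter]
    exact Finset.sum_subtype _ (fun v => by simp [Equiv.Perm.VectorsProdEqOne.mem_iff]) _
  let f : ℕ → Equiv.Perm.vectorsProdEqOne G N → Equiv.Perm.vectorsProdEqOne G N := fun k v =>
    Equiv.Perm.VectorsProdEqOne.rotate v k
  have hf1 : ∀ v, f 0 v = v := Equiv.Perm.VectorsProdEqOne.rotate_zero
  have hf2 : ∀ j k v, f k (f j v) = f (j + k) v := fun j k v =>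
    Equiv.Perm.VectorsProdEqOne.rotate_rotate v j k
  have hf3 : ∀ v, f N v = v := Equiv.Perm.VectorsProdEqOne.rotate_length
  let σ : Equiv.Perm (Equiv.Perm.vectorsProdEqOne G N) :=
    Equiv.mk (f 1) (f (N - 1)) (fun s => by rw [hf2, add_tsub_cancel_of_le hNpos, hf3])
      fun s => by rw [hf2, tsub_add_cancel_of_le hNpos, hf3]
  have hσ : ∀ k v, (σ ^ k) v = f k v := fun k =>
    Nat.rec (fun v => (hf1 v).symm) (fun k hk v => by
      rw [pow_succ, Equiv.Perm.mul_apply, hk (σ v), Nat.succ_eq_one_add, ← hf2 1 k]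
      simp only [σ, Equiv.coe_fn_mk]) k
  have hσN : σ ^ N = 1 := Equiv.Perm.ext fun v => by rw [hσ, hf3, Equiv.Perm.one_apply]
  have hσlist : ∀ v : Equiv.Perm.vectorsProdEqOne G N,
      (σ v).1.toList = v.1.toList.rotate 1 := fun v => rfl
  obtain ⟨w, hw⟩ : ∃ w : Equiv.Perm.vectorsProdEqOne G N → ℂ,
      w = fun v => if σ v = v then 0 else vecWeight b v.1 := ⟨_, rfl⟩
  have hWσ : ∀ v : Equiv.Perm.vectorsProdEqOne G N, vecWeight b (σ v).1 = vecWeight b v.1 := by
    intro v
    unfold vecWeight
    rw [hσlist, List.map_rotate]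
    exact (List.rotate_perm _ 1).prod_eq
  have hwσ : ∀ v, w (σ v) = w v := by
    intro v
    rw [hw]
    show (if σ (σ v) = σ v then 0 else vecWeight b (σ v).1) = if σ v = v then 0 else vecWeight b v.1
    rw [hWσ]
    by_cases h : σ v = v
    · rw [if_pos h, if_pos (congrArg σ h)]
    · rw [if_neg h, if_neg (fun h' => h (σ.injective h'))]
  let S : Subgroup (Equiv.Perm (Equiv.Perm.vectorsProdEqOne G N)) :=
    { carrier := {u | ∀ v, w (u v) = w v}
      mul_mem' := fun {a c} ha hc v => by
        rw [Equiv.Perm.mul_apply, ha, hc]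
      one_mem' := fun v => rfl
      inv_mem' := fun {u} hu v => by
        have h0 : u (u⁻¹ v) = v := by
          rw [← Equiv.Perm.mul_apply, mul_inv_cancel, Equiv.Perm.one_apply]
        have := hu (u⁻¹ v)
        rw [h0] at this
        exact this.symm }
  have hσS : σ ∈ S := hwσ
  have hle : Subgroup.zpowers σ ≤ S := (Subgroup.zpowers_le).mpr hσS
  have hPG : IsPGroup p (Subgroup.zpowers σ) := by
    rintro ⟨u, hu⟩
    obtain ⟨k, rfl⟩ := Subgroup.mem_zpowers_iff.mp hu
    refine ⟨n, ?_⟩
    apply Subtype.ext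
    show (σ ^ k) ^ (p ^ n) = 1
    rw [← hN, ← zpow_natCast, ← zpow_mul, mul_comm, zpow_mul, zpow_natCast, hσN, one_zpow]
  have hmem := pgroup_sum_mem hM hPG w
    (fun u a => hle u.2 a)
    (fun a => by
      rw [hw]
      show MemLocalRing M (if σ a = a then 0 else vecWeight b a.1)
      by_cases h : σ a = a
      · rw [if_pos h]
        exact memLocalRing_zero hmax
      · rw [if_neg h]
        exact memLocalRing_vecWeight hmax hb _)
    (fun a ha => by
      have h2 : σ a = a := ha ⟨σ, Subgroup.mem_zpowers σ⟩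
      rw [hw]
      show (if σ a = a then 0 else vecWeight b a.1) = 0
      rw [if_pos h2])
  have hsplit : ∑ v : Equiv.Perm.vectorsProdEqOne G N, vecWeight b v.1
      = ∑ v : Equiv.Perm.vectorsProdEqOne G N, w v
        + ∑ v ∈ Finset.univ.filter (fun v : Equiv.Perm.vectorsProdEqOne G N => σ v = v),
            vecWeight b v.1 := by
    rw [Finset.sum_filter, ← Finset.sum_add_distrib]
    apply Finset.sum_congr rfl
    intro v _
    rw [hw]
    show vecWeight b v.1 = (if σ v = v then 0 else vecWeight b v.1)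
      + (if σ v = v then vecWeight b v.1 else 0)
    by_cases h : σ v = v
    · rw [if_pos h, if_pos h, zero_add]
    · rw [if_neg h, if_neg h, add_zero]
  have hfixsum : ∑ v ∈ Finset.univ.filter
      (fun v : Equiv.Perm.vectorsProdEqOne G N => σ v = v), vecWeight b v.1
      = ∑ g ∈ Finset.univ.filter (fun g : G => g ^ N = 1), b g ^ N := by
    symm
    apply Finset.sum_bij (fun (g : G) (hg : g ∈ Finset.univ.filter (fun g : G => g ^ N = 1)) =>
      (⟨List.Vector.replicate N g, by
        show (List.replicate N g).prod = 1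
        rw [List.prod_replicate]
        exact (Finset.mem_filter.mp hg).2⟩ : Equiv.Perm.vectorsProdEqOne G N))
    · intro g hg
      rw [Finset.mem_filter]
      refine ⟨Finset.mem_univ _, ?_⟩
      apply Subtype.ext
      apply Subtype.ext
      exact List.rotate_replicate g N 1
    · intro g hg g' hg' h
      have h2 : List.replicate N g = List.replicate N g' :=
        congrArg (fun v : Equiv.Perm.vectorsProdEqOne G N => v.1.toList) h
      exact (List.replicate_right_inj hNpos.ne').mp h2
    · intro v hv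
      have hv2 : σ v = v := (Finset.mem_filter.mp hv).2
      have h3 : v.1.toList.rotate 1 = v.1.toList := by
        rw [← hσlist, hv2]
      haveI : Nonempty G := ⟨1⟩
      obtain ⟨g, hg⟩ := List.rotate_one_eq_self_iff_eq_replicate.mp h3
      have hlen : v.1.toList.length = N := v.1.2
      rw [hlen] at hg
      have hgN : g ^ N = 1 := by
        have h4 : v.1.toList.prod = 1 := v.2
        rw [hg, List.prod_replicate] at h4
        exact h4
      refine ⟨g, Finset.mem_filter.mpr ⟨Finset.mem_univ _, hgN⟩, ?_⟩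
      apply Subtype.ext
      apply Subtype.ext
      exact hg.symm
    · intro g hg
      show b g ^ N = ((List.replicate N g).map b).prod
      rw [List.map_replicate, List.prod_replicate]
  rw [h1, hsplit, hfixsum, add_sub_cancel_right]
  exact hmem

/-- The `p^n`-th power map is additive modulo the local ideal. -/
theorem sum_pow_sub_mem {p : ℕ} (hM : IsPModular p M) {ι : Type*} (s : Finset ι) (x : ι → ℂ)
    (hx : ∀ i ∈ s, MemLocalRing M (x i)) (n : ℕ) :
    MemLocalIdeal M ((∑ i ∈ s, x i) ^ (p ^ n) - ∑ i ∈ s, x i ^ (p ^ n)) := by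
  classical
  have hp := hM.1
  have hmax := hM.2.1
  induction s using Finset.induction_on with
  | empty =>
    rw [Finset.sum_empty, Finset.sum_empty, zero_pow (pow_pos hp.pos n).ne', sub_zero]
    exact memLocalIdeal_zero hmax
  | insert a s ha ih =>
    rw [Finset.sum_insert ha, Finset.sum_insert ha, add_pow_prime_pow_eq' hp]
    have h1 := ih (fun i hi => hx i (Finset.mem_insert_of_mem hi))
    have hxa := hx a (Finset.mem_insert_self a s)
    have hS : MemLocalRing M (∑ i ∈ s, x i) :=
      memLocalRing_sum hmax _ _ (fun i hi => hx i (Finset.mem_insert_of_mem hi))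
    have h2 : MemLocalIdeal M ((p : ℂ) * ∑ k ∈ Finset.Ioo 0 (p ^ n),
        x a ^ k * (∑ i ∈ s, x i) ^ (p ^ n - k) * (((p ^ n).choose k / p : ℕ) : ℂ)) := by
      apply MemLocalIdeal.mul_right hmax (memLocalIdeal_natCast_prime hM)
      apply memLocalRing_sum hmax
      intro k _
      exact MemLocalRing.mul hmax (MemLocalRing.mul hmax (MemLocalRing.pow hmax hxa _)
        (MemLocalRing.pow hmax hS _)) (memLocalRing_natCast hmax _)
    have h3 := MemLocalIdeal.add hmax h2 h1
    have e : x a ^ p ^ n + (∑ i ∈ s, x i) ^ p ^ n +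
        (p : ℂ) * ∑ k ∈ Finset.Ioo 0 (p ^ n),
          x a ^ k * (∑ i ∈ s, x i) ^ (p ^ n - k) * (((p ^ n).choose k / p : ℕ) : ℂ) -
        (x a ^ p ^ n + ∑ i ∈ s, x i ^ p ^ n)
        = (p : ℂ) * ∑ k ∈ Finset.Ioo 0 (p ^ n),
          x a ^ k * (∑ i ∈ s, x i) ^ (p ^ n - k) * (((p ^ n).choose k / p : ℕ) : ℂ)
          + ((∑ i ∈ s, x i) ^ p ^ n - ∑ i ∈ s, x i ^ p ^ n) := by ring
    rw [e]
    exact h3

/-- Powers of a translate of a central function. -/
theorem cpow_shift {z : G → ℂ} (hz : IsClassFunction G z) (a : G) (n : ℕ) (x : G) :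
    cpow (fun y => z (y * a)) n x = cpow z n (x * a ^ n) := by
  induction n generalizing x with
  | zero =>
    show (cdelta : G → ℂ) x = (cdelta : G → ℂ) (x * a ^ 0)
    rw [pow_zero, mul_one]
  | succ n ih =>
    show cconv (fun y => z (y * a)) (cpow (fun y => z (y * a)) n) x
      = cconv z (cpow z n) (x * a ^ (n + 1))
    rw [cconv_apply, cconv_apply, ← Equiv.sum_comp (Equiv.mulRight a)
      (fun g => z g * cpow z n (g⁻¹ * (x * a ^ (n + 1))))]
    apply Finset.sum_congr rfl
    intro g _
    rw [ih]
    simp only [Equiv.coe_mulRight]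
    have hc := isClassFunction_cpow hz n (g⁻¹ * x * a ^ n) a⁻¹
    have e2 : a⁻¹ * (g⁻¹ * x * a ^ n) * a⁻¹⁻¹ = (g * a)⁻¹ * (x * a ^ (n + 1)) := by
      rw [pow_succ]
      group
    rw [e2] at hc
    rw [hc]

end Cfsg.Agent.Lib.Helper6
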