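import Mathlib

set_option autoImplicit false

namespace Cfsg.Agent.Lib.Helper6.Sharp3

variable {α : Type*} [Fintype α] [DecidableEq α] {G : Subgroup (Equiv.Perm α)}

/-- triple transitivity in elementary form -/
theorem trans3 (h3 : MulAction.IsMultiplyPretransitive G α 3)
    {a b c a' b' c' : α} (hab : a ≠ b) (hac : a ≠ c) (hbc : b ≠ c)
    (hab' : a' ≠ b') (hac' : a' ≠ c') (hbc' : b' ≠ c') :
    ∃ g : G, g • a = a' ∧ g • b = b' ∧ g • c = c' := by
  have hba := hab.symm
  have hca := hac.symm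
  have hcb := hbc.symm
  have hba' := hab'.symm
  have hca' := hac'.symm
  have hcb' := hbc'.symm
  have hx : Function.Injective ![a, b, c] := by
    intro i j hij
    fin_cases i <;> fin_cases j <;> simp_all
  have hy : Function.Injective ![a', b', c'] := by
    intro i j hij
    fin_cases i <;> fin_cases j <;> simp_all
  obtain ⟨g, hg⟩ := (MulAction.isMultiplyPretransitive_iff.mp h3) ⟨_, hx⟩ ⟨_, hy⟩
  refine ⟨g, ?_, ?_, ?_⟩
  · simpa using DFunLike.congr_fun hg 0
  · simpa using DFunLike.congr_fun hg 1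
  · simpa using DFunLike.congr_fun hg 2

/-- an element fixing three points is trivial -/
theorem fix3 (hfix : ∀ g : G, 3 ≤ Nat.card (MulAction.fixedBy α g) → g = 1)
    {g : G} {a b c : α} (hab : a ≠ b) (hac : a ≠ c) (hbc : b ≠ c)
    (ha : g • a = a) (hb : g • b = b) (hc : g • c = c) : g = 1 := by
  apply hfix
  have hsub : ({a, b, c} : Set α) ⊆ MulAction.fixedBy α g := by
    intro x hx
    simp only [Set.mem_insert_iff, Set.mem_singleton_iff] at hx
    rcases hx with rfl | rfl | rfl
    · exact ha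
    · exact hb
    · exact hc
  have h3 : ({a, b, c} : Set α).ncard = 3 := Set.ncard_eq_three.mpr ⟨a, b, c, hab, hac, hbc, rfl⟩
  have hle := Set.ncard_le_ncard hsub (Set.toFinite _)
  rw [h3] at hle
  rw [Nat.card_coe_set_eq]
  exact hle

theorem smul_eq_iff {g : G} {x y : α} (h : g • x = g • y) : x = y :=
  MulAction.injective g h

/-- a nontrivial involution has exactly one fixed point -/
theorem inv_unique_fix (hodd : Odd (Fintype.card α))
    (hfix : ∀ g : G, 3 ≤ Nat.card (MulAction.fixedBy α g) → g = 1)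
    {g : G} (hg1 : g ≠ 1) (hg2 : g * g = 1) :
    ∃ a : α, g • a = a ∧ ∀ b : α, g • b = b → b = a := by
  have hσ : (g : Equiv.Perm α) ^ 2 ^ 1 = 1 := by
    have : ((g * g : G) : Equiv.Perm α) = 1 := by rw [hg2]; rfl
    simpa [pow_two] using this
  haveI : Fact (Nat.Prime 2) := ⟨Nat.prime_two⟩
  have hmod := Equiv.Perm.card_compl_support_modEq (p := 2) (n := 1) hσ
  have hoddc : Odd ((g : Equiv.Perm α).supportᶜ.card) := by
    rw [Nat.odd_iff] at hodd ⊢
    rw [← hodd]; exact hmod
  have hmem : ∀ x : α, x ∈ (g : Equiv.Perm α).supportᶜ ↔ g • x = x := by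
    intro x
    simp [Equiv.Perm.mem_support, Subgroup.smul_def]
  by_contra hcon
  have h3 : 2 < (g : Equiv.Perm α).supportᶜ.card := by
    by_contra hlt
    have h1 : (g : Equiv.Perm α).supportᶜ.card = 1 := by
      obtain ⟨k, hk⟩ := hoddc; omega
    obtain ⟨a, ha⟩ := Finset.card_eq_one.mp h1
    apply hcon
    refine ⟨a, (hmem a).mp (by rw [ha]; simp), fun b hb => ?_⟩
    have : b ∈ (g : Equiv.Perm α).supportᶜ := (hmem b).mpr hb
    rw [ha] at this; simpa using this
  obtain ⟨a, ha, b, hb, c, hc, hab, hac, hbc⟩ := Finset.two_lt_card.mp h3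
  exact hg1 (fix3 hfix hab hac hbc ((hmem a).mp ha) ((hmem b).mp hb) ((hmem c).mp hc))

/-- elements fixing exactly one point are involutions -/
theorem key (h3 : MulAction.IsMultiplyPretransitive G α 3)
    (hfix : ∀ g : G, 3 ≤ Nat.card (MulAction.fixedBy α g) → g = 1)
    (hodd : Odd (Fintype.card α))
    {g : G} {a : α} (hg1 : g ≠ 1) (hga : g • a = a)
    (hgu : ∀ b, g • b = b → b = a) : g * g = 1 := by
  classical
  obtain ⟨b, hb⟩ : ∃ b, b ≠ a := by
    by_contra hcon
    apply hg1
    ext x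
    have hx : x = a := by
      by_contra hxa
      exact hcon ⟨x, hxa⟩
    subst hx
    exact hga
  obtain ⟨c, hc⟩ : ∃ c, c = g • b := ⟨_, rfl⟩
  have hcb : c ≠ b := fun h => hb (hgu b (by rw [← hc, h]))
  have hca : c ≠ a := by
    intro h
    apply hb
    apply smul_eq_iff (g := g)
    rw [← hc, h, hga]
  obtain ⟨s, hsa, hsb, hsc⟩ := trans3 h3 hb.symm hca.symm hcb.symm hca.symm hb.symm hcb
  have hss : s * s = 1 := by
    apply fix3 hfix hb.symm hca.symm hcb.symm
    · rw [mul_smul, hsa, hsa]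
    · rw [mul_smul, hsb, hsc]
    · rw [mul_smul, hsc, hsb]
  have hs1 : s ≠ 1 := by
    intro h
    rw [h, one_smul] at hsb
    exact hcb hsb.symm
  obtain ⟨a', hsa', hsu'⟩ := inv_unique_fix hodd hfix hs1 hss
  have haa' : a = a' := hsu' a hsa
  subst haa'
  by_contra hgg
  have hgs : g ≠ s := fun h => hgg (by rw [h]; exact hss)
  haveI : Fintype G := Fintype.ofFinite G
  let F : Finset G := Finset.univ.filter (fun h : G => h • a = a ∧ h • b = c)
  have hFmem : ∀ h : G, h ∈ F ↔ h • a = a ∧ h • b = c := by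
    intro h; simp [F]
  have hgF : g ∈ F := (hFmem g).mpr ⟨hga, hc.symm⟩
  have hsF : s ∈ F := (hFmem s).mpr ⟨hsa, hsb⟩
  have hF1 : F.card ≤ ((Finset.univ.erase a).erase c).card := by
    apply Finset.card_le_card_of_injOn (fun h : G => h • c)
    · intro h hh
      obtain ⟨h1, h2⟩ := (hFmem h).mp hh
      apply Finset.mem_coe.mpr
      refine Finset.mem_erase.mpr ⟨?_, Finset.mem_erase.mpr ⟨?_, Finset.mem_univ _⟩⟩
      · intro heq
        apply hcb
        apply smul_eq_iff (g := h)
        rw [h2]; exact heq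
      · intro heq
        apply hca
        apply smul_eq_iff (g := h)
        rw [h1]; exact heq
    · intro h hh h' hh' heq
      obtain ⟨h1, h2⟩ := (hFmem h).mp hh
      obtain ⟨h1', h2'⟩ := (hFmem h').mp hh'
      have heq' : h • c = h' • c := heq
      have : h⁻¹ * h' = 1 := by
        apply fix3 hfix hb.symm hca.symm hcb.symm
        · rw [mul_smul, h1', inv_smul_eq_iff, h1]
        · rw [mul_smul, h2', inv_smul_eq_iff, h2]
        · rw [mul_smul, ← heq', inv_smul_smul]
      exact inv_mul_eq_one.mp this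
  let D : Finset α := ((Finset.univ.erase a).erase b).erase c
  have hDmem : ∀ δ, δ ∈ D ↔ δ ≠ a ∧ δ ≠ b ∧ δ ≠ c := by
    intro δ; simp [D]; tauto
  have hex : ∀ δ, δ ∈ D → ∃ k : G, k • a = a ∧ k • b = c ∧ k • δ = δ := by
    intro δ hδ
    obtain ⟨d1, d2, d3⟩ := (hDmem δ).mp hδ
    exact trans3 h3 hb.symm (Ne.symm d1) (Ne.symm d2) hca.symm (Ne.symm d1) (Ne.symm d3)
  let kf : α → G := fun δ => if hδ : δ ∈ D then Classical.choose (hex δ hδ) else 1
  have hkf : ∀ δ ∈ D, kf δ • a = a ∧ kf δ • b = c ∧ kf δ • δ = δ := by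
    intro δ hδ
    simp only [kf, dif_pos hδ]
    exact Classical.choose_spec (hex δ hδ)
  have hF2 : D.card ≤ ((F.erase g).erase s).card := by
    apply Finset.card_le_card_of_injOn kf
    · intro δ hδ
      have hδ' : δ ∈ D := hδ
      obtain ⟨k1, k2, k3⟩ := hkf δ hδ'
      obtain ⟨d1, d2, d3⟩ := (hDmem δ).mp hδ'
      apply Finset.mem_coe.mpr
      refine Finset.mem_erase.mpr ⟨?_, Finset.mem_erase.mpr ⟨?_, (hFmem _).mpr ⟨k1, k2⟩⟩⟩
      · intro heq
        rw [heq] at k3
        exact d1 (hsu' δ k3)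
      · intro heq
        rw [heq] at k3
        exact d1 (hgu δ k3)
    · intro δ hδ δ' hδ' heq
      have hδ1 : δ ∈ D := hδ
      have hδ2 : δ' ∈ D := hδ'
      obtain ⟨k1, k2, k3⟩ := hkf δ hδ1
      obtain ⟨k1', k2', k3'⟩ := hkf δ' hδ2
      obtain ⟨d1, d2, d3⟩ := (hDmem δ).mp hδ1
      obtain ⟨d1', d2', d3'⟩ := (hDmem δ').mp hδ2
      by_contra hne
      have heq' : kf δ = kf δ' := heq
      rw [← heq'] at k3'
      have hk1 : kf δ = 1 := fix3 hfix (Ne.symm d1) (Ne.symm d1') hne k1 k3 k3'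
      rw [hk1, one_smul] at k2
      exact hcb k2.symm
  have hc1 : ((Finset.univ.erase a).erase c).card = Fintype.card α - 2 := by
    rw [Finset.card_erase_of_mem (Finset.mem_erase.mpr ⟨hca, Finset.mem_univ _⟩),
      Finset.card_erase_of_mem (Finset.mem_univ _), Finset.card_univ]
    omega
  have hc2 : D.card = Fintype.card α - 3 := by
    have hcm : c ∈ (Finset.univ.erase a).erase b :=
      Finset.mem_erase.mpr ⟨hcb, Finset.mem_erase.mpr ⟨hca, Finset.mem_univ _⟩⟩
    have hbm : b ∈ (Finset.univ.erase a : Finset α) :=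
      Finset.mem_erase.mpr ⟨hb, Finset.mem_univ _⟩
    simp only [D]
    rw [Finset.card_erase_of_mem hcm, Finset.card_erase_of_mem hbm,
      Finset.card_erase_of_mem (Finset.mem_univ _), Finset.card_univ]
    omega
  have hsm : s ∈ F.erase g := Finset.mem_erase.mpr ⟨Ne.symm hgs, hsF⟩
  have hc3 : ((F.erase g).erase s).card = F.card - 2 := by
    rw [Finset.card_erase_of_mem hsm, Finset.card_erase_of_mem hgF]
    omega
  have hc4 : 2 ≤ F.card := by
    have h1 : 0 < (F.erase g).card := Finset.card_pos.mpr ⟨s, hsm⟩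
    rw [Finset.card_erase_of_mem hgF] at h1
    omega
  omega

/-- the elements of order at most two fixing `a` form a subgroup -/
def NSub (h3 : MulAction.IsMultiplyPretransitive G α 3)
    (hfix : ∀ g : G, 3 ≤ Nat.card (MulAction.fixedBy α g) → g = 1)
    (hodd : Odd (Fintype.card α)) (a : α) : Subgroup G where
  carrier := {g | g • a = a ∧ g * g = 1}
  one_mem' := ⟨one_smul _ _, one_mul 1⟩
  inv_mem' := by
    intro g hg
    obtain ⟨h1, h2⟩ := hg
    have : g⁻¹ = g := inv_eq_of_mul_eq_one_left h2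
    rw [this]; exact ⟨h1, h2⟩
  mul_mem' := by
    intro s t hs ht
    obtain ⟨hs1, hs2⟩ := hs
    obtain ⟨ht1, ht2⟩ := ht
    have hsta : (s * t) • a = a := by rw [mul_smul, ht1, hs1]
    refine ⟨hsta, ?_⟩
    by_cases hs : s = 1
    · subst hs; simpa using ht2
    by_cases ht : t = 1
    · subst ht; simpa using hs2
    by_cases hst : s * t = 1
    · rw [hst]; simp
    apply key h3 hfix hodd hst hsta
    intro b hb
    by_contra hba
    exfalso
    obtain ⟨a', hta', htu'⟩ := inv_unique_fix hodd hfix ht ht2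
    have haa' : a = a' := htu' a ht1
    subst haa'
    have hsb : s • (s • b) = b := by rw [← mul_smul, hs2, one_smul]
    have htb : t • b = s • b := by
      apply smul_eq_iff (g := s)
      rw [hsb, ← mul_smul, hb]
    have htt : t • (t • b) = b := by rw [← mul_smul, ht2, one_smul]
    have hcb : t • b ≠ b := fun h => hba (htu' b h)
    have hca : t • b ≠ a := by
      intro h
      apply hba
      apply smul_eq_iff (g := t)
      rw [h, ht1]
    apply hst
    apply fix3 hfix (Ne.symm hba) (Ne.symm hca) (Ne.symm hcb) hsta hb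
    rw [mul_smul, htt, ← htb]

theorem mem_NSub (h3 : MulAction.IsMultiplyPretransitive G α 3)
    (hfix : ∀ g : G, 3 ≤ Nat.card (MulAction.fixedBy α g) → g = 1)
    (hodd : Odd (Fintype.card α)) (a : α) (g : G) :
    g ∈ NSub h3 hfix hodd a ↔ g • a = a ∧ g * g = 1 := Iff.rfl

theorem NSub_isPGroup (h3 : MulAction.IsMultiplyPretransitive G α 3)
    (hfix : ∀ g : G, 3 ≤ Nat.card (MulAction.fixedBy α g) → g = 1)
    (hodd : Odd (Fintype.card α)) (a : α) : IsPGroup 2 (NSub h3 hfix hodd a) := by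
  intro g
  refine ⟨1, ?_⟩
  have h := ((mem_NSub h3 hfix hodd a g.1).mp g.2).2
  apply Subtype.ext
  simp only [pow_one, Subgroup.coe_pow, Subgroup.coe_one]
  rw [pow_two]; exact h

theorem card_NSub (h3 : MulAction.IsMultiplyPretransitive G α 3)
    (hfix : ∀ g : G, 3 ≤ Nat.card (MulAction.fixedBy α g) → g = 1)
    (hodd : Odd (Fintype.card α)) (hm : 3 ≤ Fintype.card α) (a : α) :
    Nat.card (NSub h3 hfix hodd a) = Fintype.card α - 1 := by
  classical
  obtain ⟨b, hb⟩ : ∃ b, b ≠ a := by
    have : 1 < Fintype.card α := by omega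
    haveI : Nontrivial α := Fintype.one_lt_card_iff_nontrivial.mp this
    exact exists_ne a
  have hne : ∀ g : NSub h3 hfix hodd a, (g : G) • b ≠ a := by
    intro g h
    apply hb
    apply smul_eq_iff (g := (g : G))
    rw [h, ((mem_NSub h3 hfix hodd a g.1).mp g.2).1]
  let φ : NSub h3 hfix hodd a → {x : α // x ≠ a} := fun g => ⟨(g : G) • b, hne g⟩
  have hφ : Function.Bijective φ := by
    constructor
    · intro g h hgh
      have hgh' : (g : G) • b = (h : G) • b := congrArg Subtype.val hgh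
      have hk : (g⁻¹ * h : NSub h3 hfix hodd a) = 1 := by
        by_contra hk1
        have hkm := (mem_NSub h3 hfix hodd a _).mp (g⁻¹ * h).2
        have hk1' : ((g⁻¹ * h : NSub h3 hfix hodd a) : G) ≠ 1 := by
          intro h'
          apply hk1
          exact Subtype.ext h'
        obtain ⟨a', hka', hku'⟩ := inv_unique_fix hodd hfix hk1' hkm.2
        have haa' : a = a' := hku' a hkm.1
        subst haa'
        apply hb
        apply hku'
        show ((g⁻¹ * h : NSub h3 hfix hodd a) : G) • b = b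
        rw [Subgroup.coe_mul, Subgroup.coe_inv, mul_smul, ← hgh', inv_smul_smul]
      exact inv_mul_eq_one.mp hk
    · intro x
      obtain ⟨x, hx⟩ := x
      by_cases hxb : x = b
      · refine ⟨1, ?_⟩
        apply Subtype.ext
        show ((1 : NSub h3 hfix hodd a) : G) • b = x
        rw [Subgroup.coe_one, one_smul, hxb]
      · obtain ⟨s, hsa, hsb, hsx⟩ := trans3 h3 hb.symm (Ne.symm hx) (Ne.symm hxb)
          (Ne.symm hx) hb.symm hxb
        have hss : s * s = 1 := by
          apply fix3 hfix hb.symm (Ne.symm hx) (Ne.symm hxb)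
          · rw [mul_smul, hsa, hsa]
          · rw [mul_smul, hsb, hsx]
          · rw [mul_smul, hsx, hsb]
        refine ⟨⟨s, (mem_NSub h3 hfix hodd a s).mpr ⟨hsa, hss⟩⟩, ?_⟩
        apply Subtype.ext
        exact hsb
  rw [Nat.card_congr (Equiv.ofBijective φ hφ), Nat.card_eq_fintype_card,
    Fintype.card_subtype_compl, Fintype.card_subtype_eq]

/-- the centralizer of an involution lies in `NSub` of its fixed point -/
theorem cent_le (h3 : MulAction.IsMultiplyPretransitive G α 3)
    (hfix : ∀ g : G, 3 ≤ Nat.card (MulAction.fixedBy α g) → g = 1)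
    (hodd : Odd (Fintype.card α)) {t : G} (ht1 : t ≠ 1) (ht2 : t * t = 1) :
    ∃ a : α, t • a = a ∧ (∀ b : α, t • b = b → b = a) ∧
      Subgroup.centralizer ({t} : Set G) ≤ NSub h3 hfix hodd a := by
  obtain ⟨a, hta, htu⟩ := inv_unique_fix hodd hfix ht1 ht2
  refine ⟨a, hta, htu, ?_⟩
  intro c hc
  have hct : t * c = c * t := by
    have := Subgroup.mem_centralizer_iff.mp hc t (Set.mem_singleton t)
    exact this
  have hca : c • a = a := by
    apply htu
    rw [← mul_smul, hct, mul_smul, hta]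
  refine (mem_NSub h3 hfix hodd a c).mpr ⟨hca, ?_⟩
  by_cases hc1 : c = 1
  · rw [hc1]; simp
  apply key h3 hfix hodd hc1 hca
  intro b hb
  by_contra hba
  apply hc1
  have htb : t • b ≠ b := fun h => hba (htu b h)
  have htba : t • b ≠ a := by
    intro h
    apply hba
    apply smul_eq_iff (g := t)
    rw [h, hta]
  apply fix3 hfix (Ne.symm hba) (Ne.symm htba) (Ne.symm htb) hca hb
  rw [← mul_smul, ← hct, mul_smul, hb]

/-- all the hypotheses of the recognition theorem -/
theorem main (h3 : MulAction.IsMultiplyPretransitive G α 3)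
    (hfix : ∀ g : G, 3 ≤ Nat.card (MulAction.fixedBy α g) → g = 1)
    (hodd : Odd (Fintype.card α)) (hm : 5 ≤ Fintype.card α) (T : Sylow 2 G) :
    Nat.card T = Fintype.card α - 1 ∧ ¬ IsCyclic (T : Subgroup G) ∧
    ¬ (T : Subgroup G).Normal ∧
    (∀ t : G, orderOf t = 2 → IsMulCommutative (Subgroup.centralizer ({t} : Set G)) ∧
      ∀ c ∈ Subgroup.centralizer ({t} : Set G), c ^ 2 = 1) := by
  classical
  haveI : Fact (Nat.Prime 2) := ⟨Nat.prime_two⟩
  have hinv : ∀ t : G, orderOf t = 2 → t ≠ 1 ∧ t * t = 1 := by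
    intro t ht
    refine ⟨?_, ?_⟩
    · intro h; rw [h, orderOf_one] at ht; omega
    · have := pow_orderOf_eq_one t
      rw [ht, pow_two] at this; exact this
  have hC : ∀ t : G, orderOf t = 2 → IsMulCommutative (Subgroup.centralizer ({t} : Set G)) ∧
      ∀ c ∈ Subgroup.centralizer ({t} : Set G), c ^ 2 = 1 := by
    intro t ht
    obtain ⟨ht1, ht2⟩ := hinv t ht
    obtain ⟨a, hta, htu, hle⟩ := cent_le h3 hfix hodd ht1 ht2
    have hsq : ∀ c ∈ Subgroup.centralizer ({t} : Set G), c * c = 1 := fun c hc =>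
      ((mem_NSub h3 hfix hodd a c).mp (hle hc)).2
    refine ⟨⟨⟨fun x y => ?_⟩⟩, fun c hc => by rw [pow_two]; exact hsq c hc⟩
    apply Subtype.ext
    have hx := hsq x.1 x.2
    have hy := hsq y.1 y.2
    have hxy := hsq (x.1 * y.1) (Subgroup.mul_mem _ x.2 y.2)
    show x.1 * y.1 = y.1 * x.1
    calc x.1 * y.1 = (y.1 * y.1) * (x.1 * y.1) * (x.1 * x.1) := by rw [hx, hy]; group
      _ = y.1 * ((y.1 * x.1) * (y.1 * x.1)) * x.1 := by group
      _ = y.1 * ((x.1 * y.1) * (x.1 * y.1))⁻¹ * x.1 := by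
          have : (y.1 * x.1) * (y.1 * x.1) = ((x.1 * y.1) * (x.1 * y.1))⁻¹ := by
            have hx' : x.1⁻¹ = x.1 := inv_eq_of_mul_eq_one_left hx
            have hy' : y.1⁻¹ = y.1 := inv_eq_of_mul_eq_one_left hy
            simp only [mul_inv_rev, hx', hy']
          rw [this]
      _ = y.1 * x.1 := by rw [hxy]; group
  -- an involution exists
  obtain ⟨a0, b0, hab0⟩ : ∃ a0 b0 : α, a0 ≠ b0 := by
    have : 1 < Fintype.card α := by omega
    haveI : Nontrivial α := Fintype.one_lt_card_iff_nontrivial.mp this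
    exact exists_pair_ne α
  obtain ⟨c0, hc0a, hc0b⟩ : ∃ c0 : α, c0 ≠ a0 ∧ c0 ≠ b0 := by
    by_contra hcon
    have hsub : (Finset.univ : Finset α) ⊆ {a0, b0} := by
      intro x _
      by_contra hx
      simp only [Finset.mem_insert, Finset.mem_singleton, not_or] at hx
      exact hcon ⟨x, hx.1, hx.2⟩
    have := Finset.card_le_card hsub
    have h2 : ({a0, b0} : Finset α).card ≤ 2 := Finset.card_le_two
    rw [Finset.card_univ] at this
    omega
  obtain ⟨s0, hs0a, hs0b, hs0c⟩ := trans3 h3 hab0 (Ne.symm hc0a) (Ne.symm hc0b)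
    (Ne.symm hab0) (Ne.symm hc0b) (Ne.symm hc0a)
  have hs01 : s0 ≠ 1 := by
    intro h; rw [h, one_smul] at hs0a; exact hab0 hs0a
  have hs0s : s0 * s0 = 1 := by
    apply fix3 hfix hab0 (Ne.symm hc0a) (Ne.symm hc0b)
    · rw [mul_smul, hs0a, hs0b]
    · rw [mul_smul, hs0b, hs0a]
    · rw [mul_smul, hs0c, hs0c]
  have hord : orderOf s0 = 2 := orderOf_eq_prime (by rw [pow_two]; exact hs0s) hs01
  have h2dvd : 2 ∣ Nat.card G := by rw [← hord]; exact orderOf_dvd_natCard s0
  have hTbot : (T : Subgroup G) ≠ ⊥ := T.ne_bot_of_dvd_card h2dvd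
  haveI : Nontrivial (T : Subgroup G) := (Subgroup.nontrivial_iff_ne_bot _).mpr hTbot
  haveI : Nontrivial (Subgroup.center (T : Subgroup G)) := T.isPGroup'.center_nontrivial
  have h2c : 2 ∣ Nat.card (Subgroup.center (T : Subgroup G)) := by
    have hp : IsPGroup 2 (Subgroup.center (T : Subgroup G)) := T.isPGroup'.to_subgroup _
    obtain ⟨n, hn⟩ := IsPGroup.iff_card.mp hp
    have hn0 : n ≠ 0 := by
      intro h0
      rw [h0, pow_zero] at hn
      have := Finite.one_lt_card (α := Subgroup.center (T : Subgroup G))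
      omega
    rw [hn]; exact dvd_pow_self 2 hn0
  obtain ⟨z, hz⟩ := exists_prime_orderOf_dvd_card' 2 h2c
  have hzG : orderOf ((z : (T : Subgroup G)) : G) = 2 := by
    rw [Subgroup.orderOf_coe, Subgroup.orderOf_coe]; exact hz
  obtain ⟨hz1, hz2⟩ := hinv _ hzG
  obtain ⟨a, hza, hzu, hle⟩ := cent_le h3 hfix hodd hz1 hz2
  have hTle : (T : Subgroup G) ≤ NSub h3 hfix hodd a := by
    intro x hx
    apply hle
    rw [Subgroup.mem_centralizer_iff]
    intro y hy
    rw [Set.mem_singleton_iff] at hy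
    subst hy
    have hcomm := Subgroup.mem_center_iff.mp z.2 ⟨x, hx⟩
    have := Subtype.ext_iff.mp hcomm
    simpa using this.symm
  have hTeq : NSub h3 hfix hodd a = (T : Subgroup G) :=
    T.is_maximal' (NSub_isPGroup h3 hfix hodd a) hTle
  have hcardT : Nat.card T = Fintype.card α - 1 := by
    have h1 := card_NSub h3 hfix hodd (by omega) a
    rw [hTeq] at h1
    exact h1
  refine ⟨hcardT, ?_, ?_, hC⟩
  · intro hcyc
    have hexp : Monoid.exponent (T : Subgroup G) ∣ 2 := by
      apply Monoid.exponent_dvd_of_forall_pow_eq_one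
      intro g
      have hg : (g : G) ∈ NSub h3 hfix hodd a := hTle g.2
      have := ((mem_NSub h3 hfix hodd a _).mp hg).2
      apply Subtype.ext
      simp only [Subgroup.coe_pow, Subgroup.coe_one]
      rw [pow_two]; exact this
    rw [IsCyclic.exponent_eq_card] at hexp
    have := Nat.le_of_dvd (by norm_num) hexp
    have h2 : Nat.card (T : Subgroup G) = Fintype.card α - 1 := hcardT
    omega
  · intro hN
    obtain ⟨g, hga, -, -⟩ := trans3 h3 hab0 (Ne.symm hc0a) (Ne.symm hc0b)
      (Ne.symm hab0) (Ne.symm hc0b) (Ne.symm hc0a)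
    -- find g moving a
    obtain ⟨b, hb⟩ : ∃ b, b ≠ a := by
      have : 1 < Fintype.card α := by omega
      haveI : Nontrivial α := Fintype.one_lt_card_iff_nontrivial.mp this
      exact exists_ne a
    obtain ⟨c, hca, hcb⟩ : ∃ c : α, c ≠ a ∧ c ≠ b := by
      by_contra hcon
      have hsub : (Finset.univ : Finset α) ⊆ {a, b} := by
        intro x _
        by_contra hx
        simp only [Finset.mem_insert, Finset.mem_singleton, not_or] at hx
        exact hcon ⟨x, hx.1, hx.2⟩
      have := Finset.card_le_card hsub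
      have h2 : ({a, b} : Finset α).card ≤ 2 := Finset.card_le_two
      rw [Finset.card_univ] at this
      omega
    obtain ⟨k, hka, hkb, hkc⟩ := trans3 h3 (Ne.symm hb) (Ne.symm hca) (Ne.symm hcb)
      hb (Ne.symm hcb) (Ne.symm hca)
    have hzT : ((z : (T : Subgroup G)) : G) ∈ (T : Subgroup G) := (z : (T : Subgroup G)).2
    have hconj : k * ((z : (T : Subgroup G)) : G) * k⁻¹ ∈ (T : Subgroup G) := hN.conj_mem _ hzT k
    have hconj' : k * ((z : (T : Subgroup G)) : G) * k⁻¹ ∈ NSub h3 hfix hodd a := by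
      rw [hTeq]; exact hconj
    have h1 := ((mem_NSub h3 hfix hodd a _).mp hconj').1
    rw [mul_smul, mul_smul] at h1
    have h2 : ((z : (T : Subgroup G)) : G) • (k⁻¹ • a) = k⁻¹ • a := by
      have h1' := congrArg (fun x => k⁻¹ • x) h1
      simp only [inv_smul_smul] at h1'
      exact h1'
    have h3' := hzu _ h2
    have : k • a = a := by
      rw [inv_smul_eq_iff] at h3'
      exact h3'.symm
    rw [hka] at this
    exact hb this

end Cfsg.Agent.Lib.Helper6.Sharp3
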